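import Mathlib

/-!
# O'Nan–Scott core (S0723): definitions
-/

set_option autoImplicit false

namespace Cfsg.Agent.Lib.Helper3.OS

variable {T : Type*} [Group T] {m : ℕ}

/-- the action of a "monomial" pair `(σ, φ)` on `Fin m → T`:
`act s x (σ i) = φ i (x i)` -/
def act (s : Equiv.Perm (Fin m) × (Fin m → (T ≃* T))) (x : Fin m → T) : Fin m → T :=
  fun j => s.2 (s.1.symm j) (x (s.1.symm j))

theorem act_apply (s : Equiv.Perm (Fin m) × (Fin m → (T ≃* T))) (x : Fin m → T) (i : Fin m) :
    act s x (s.1 i) = s.2 i (x i) := by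
  simp [act]

theorem act_mulSingle (s : Equiv.Perm (Fin m) × (Fin m → (T ≃* T))) (i : Fin m) (t : T) :
    act s (Pi.mulSingle i t) = Pi.mulSingle (s.1 i) (s.2 i t) := by
  funext j
  obtain ⟨l, rfl⟩ := s.1.surjective j
  rw [act_apply]
  by_cases h : l = i
  · subst h
    simp
  · rw [Pi.mulSingle_eq_of_ne h, Pi.mulSingle_eq_of_ne (fun e => h (s.1.injective e)), map_one]

/-- `i` and `j` have the same kernel on `X` -/
def Rel (X : Subgroup (Fin m → T)) (i j : Fin m) : Prop := ∀ x ∈ X, x i = 1 ↔ x j = 1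

theorem Rel.refl (X : Subgroup (Fin m → T)) (i : Fin m) : Rel X i i := fun _ _ => Iff.rfl

theorem Rel.symm {X : Subgroup (Fin m → T)} {i j : Fin m} (h : Rel X i j) : Rel X j i :=
  fun x hx => (h x hx).symm

theorem Rel.trans {X : Subgroup (Fin m → T)} {i j l : Fin m} (h : Rel X i j) (h' : Rel X j l) :
    Rel X i l := fun x hx => (h x hx).trans (h' x hx)

/-- conjugation by `h` on the normal subgroup `N`, transported to `Fin m → T` -/
def tr {H : Type*} [Group H] {N : Subgroup H} [N.Normal] (e : N ≃* (Fin m → T)) (h : H) :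
    (Fin m → T) ≃* (Fin m → T) :=
  e.symm.trans ((MulAut.conjNormal h).trans e)

theorem tr_apply {H : Type*} [Group H] {N : Subgroup H} [N.Normal] (e : N ≃* (Fin m → T)) (h : H)
    (x : Fin m → T) : tr e h x = e (MulAut.conjNormal h (e.symm x)) := rfl

theorem tr_mul {H : Type*} [Group H] {N : Subgroup H} [N.Normal] (e : N ≃* (Fin m → T)) (h h' : H)
    (x : Fin m → T) : tr e (h * h') x = tr e h (tr e h' x) := by
  simp [tr_apply, map_mul]

theorem coe_symm_tr {H : Type*} [Group H] {N : Subgroup H} [N.Normal] (e : N ≃* (Fin m → T)) (h : H)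
    (x : Fin m → T) : ((e.symm (tr e h x) : N) : H) = h * (e.symm x : N) * h⁻¹ := by
  simp [tr_apply]

end Cfsg.Agent.Lib.Helper3.OS
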